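import Cfsg.Agent.Char.Irr
import Cfsg.Agent.Char.Induced
import Cfsg.Agent.Blocks.DefectNumber
import Mathlib.RingTheory.IntegralClosure.IntegrallyClosed
import Mathlib.RingTheory.Adjoin.FG
import Mathlib.LinearAlgebra.Determinant

/-!
# The degree ratio of a character over a constituent of a normal subgroup divides the index
-/

namespace Cfsg.Agent.Char

universe u

open Representation

variable {G : Type u} [Group G]

/-- If a finite set of endomorphisms is closed under products and contains `1`, then every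
combination with algebraic integer coefficients which is a scalar has an algebraic integer value. -/
theorem isIntegral_scalar_of_combination {M : Type*} [AddCommGroup M] [Module ℂ M]
    [Nontrivial M] (Γ : Submonoid (Module.End ℂ M)) (hfin : (Γ : Set (Module.End ℂ M)).Finite)
    {ι : Type*} (s : Finset ι) (a : ι → ℂ) (ha : ∀ i ∈ s, IsIntegral ℤ (a i))
    (γ : ι → Module.End ℂ M) (hγ : ∀ i ∈ s, γ i ∈ Γ) {z : ℂ}
    (hz : ∑ i ∈ s, a i • γ i = z • (1 : Module.End ℂ M)) : IsIntegral ℤ z := by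
  let K := integralClosure ℤ ℂ
  let S : Subalgebra K (Module.End ℂ M) := Algebra.adjoin K (Γ : Set (Module.End ℂ M))
  have hS : Subalgebra.toSubmodule S = Submodule.span K (Γ : Set (Module.End ℂ M)) := by
    rw [Algebra.adjoin_eq_span, Submonoid.closure_eq]
  have hfg : (Subalgebra.toSubmodule S).FG := by
    rw [hS]; exact Submodule.fg_span hfin
  have hmem : z • (1 : Module.End ℂ M) ∈ S := by
    rw [← hz]
    refine S.sum_mem fun i hi => ?_
    exact S.smul_mem (Algebra.subset_adjoin (hγ i hi)) (⟨a i, ha i hi⟩ : K)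
  have h1 : IsIntegral K (z • (1 : Module.End ℂ M)) := IsIntegral.of_mem_of_fg S hfg _ hmem
  have h2 : IsIntegral K z := by
    have heq : z • (1 : Module.End ℂ M) = (IsScalarTower.toAlgHom K ℂ (Module.End ℂ M)) z := by
      simp [Algebra.algebraMap_eq_smul_one]
    rw [heq] at h1
    refine (isIntegral_algHom_iff _ ?_).1 h1
    intro x y hxy
    simp only [IsScalarTower.coe_toAlgHom', Algebra.algebraMap_eq_smul_one] at hxy
    exact smul_left_injective ℂ one_ne_zero hxy
  exact isIntegral_trans (R := ℤ) (A := K) z h2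

/-- The invariant case. -/
theorem dvd_index_of_invariant [Fintype G] (N : Subgroup G) [N.Normal] [Fintype N]
    (χ : Cfsg.IrrCharacter G) (θ : Cfsg.IrrCharacter N)
    (hinv : ∀ g : G, conjFn N (θ : N → ℂ) g = θ) (e : ℕ)
    (he : Cfsg.classInner (fun n : N => (χ : G → ℂ) n) (θ : N → ℂ) = e) (he0 : e ≠ 0) :
    (χ : G → ℂ) 1 = e * (θ : N → ℂ) 1 ∧ e ∣ N.index := by
  classical
  have hset : {f : N → ℂ | ∃ g : G, f = conjFn N (θ : N → ℂ) g} = {(θ : N → ℂ)} := by
    ext f
    simp only [Set.mem_setOf_eq, Set.mem_singleton_iff]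
    exact ⟨fun ⟨g, h⟩ => h.trans (hinv g), fun h => ⟨1, h.trans (conjFn_one N _).symm⟩⟩
  have hdeg : (χ : G → ℂ) 1 = e * (θ : N → ℂ) 1 := by
    have h := congrFun (res_eq_smul_sum_conj N χ θ (by rw [he]; exact_mod_cast he0)) 1
    rw [hset, finsum_mem_singleton, he] at h
    simpa using h
  refine ⟨hdeg, ?_⟩
  obtain ⟨c, ρ, hρirr, hρ⟩ := χ.2
  obtain ⟨d, σ, hσirr, hσ⟩ := θ.2
  haveI := hρirr
  haveI := hσirr
  have hd0 : 0 < Module.finrank ℂ (Fin d → ℂ) := finrank_pos_of_isIrreducible σ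
  -- the intertwiners of the conjugate representations
  have hU : ∀ g : G, ∃ U : (Fin d → ℂ) ≃ₗ[ℂ] (Fin d → ℂ),
      (∀ (n : N) (w : Fin d → ℂ), U (σ n w) = σ (conjEquiv N g n) (U w)) ∧
      LinearMap.det (U : (Fin d → ℂ) →ₗ[ℂ] (Fin d → ℂ)) = 1 := by
    intro g
    let σg : Representation ℂ N (Fin d → ℂ) := σ.comp (conjEquiv N g).toMonoidHom
    haveI : σg.IsIrreducible := by
      have eo : Subrepresentation σ ≃o Subrepresentation σg :=
        { toFun := fun W => ⟨W.toSubmodule, fun h v hv =>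
            W.apply_mem_toSubmodule (conjEquiv N g h) hv⟩
          invFun := fun W => ⟨W.toSubmodule, fun h v hv => by
            obtain ⟨h', rfl⟩ := (conjEquiv N g).surjective h
            exact W.apply_mem_toSubmodule h' hv⟩
          left_inv := fun W => rfl
          right_inv := fun W => rfl
          map_rel_iff' := Iff.rfl }
      exact (OrderIso.isSimpleOrder_iff eo).1 hσirr
    have hg : σg.character = (θ : N → ℂ) := by
      rw [← hinv g, ← hσ]; rfl
    have h1 : Module.finrank ℂ (IntertwiningMap σ σg) = 1 := by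
      have h := classInner_char_eq_finrank σ σg
      rw [hg, hσ, classInner_irr_self] at h
      exact_mod_cast h.symm
    haveI : Nontrivial (IntertwiningMap σ σg) := Module.nontrivial_of_finrank_eq_succ h1
    obtain ⟨f, hf⟩ := exists_ne (0 : IntertwiningMap σ σg)
    have hb : Function.Bijective f.toLinearMap :=
      (IsIrreducible.bijective_or_eq_zero f).resolve_right hf
    let E := LinearEquiv.ofBijective f.toLinearMap hb
    obtain ⟨z, hz⟩ := IsAlgClosed.exists_pow_nat_eq
      (LinearMap.det (E : (Fin d → ℂ) →ₗ[ℂ] (Fin d → ℂ)))⁻¹ hd0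
    have hdetE : LinearMap.det (E : (Fin d → ℂ) →ₗ[ℂ] (Fin d → ℂ)) ≠ 0 :=
      (LinearEquiv.isUnit_det' E).ne_zero
    have hz0 : z ≠ 0 := by
      intro h
      rw [h, zero_pow hd0.ne'] at hz
      exact inv_ne_zero hdetE hz.symm
    refine ⟨E.trans (LinearEquiv.smulOfNeZero ℂ (Fin d → ℂ) z hz0), fun n w => ?_, ?_⟩
    · show z • f.toLinearMap (σ n w) = σ (conjEquiv N g n) (z • f.toLinearMap w)
      rw [map_smul]
      congr 1
      exact IntertwiningMap.isIntertwining _ _ f n w
    · have : ((E.trans (LinearEquiv.smulOfNeZero ℂ (Fin d → ℂ) z hz0)) :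
          (Fin d → ℂ) →ₗ[ℂ] (Fin d → ℂ)) = z • (E : (Fin d → ℂ) →ₗ[ℂ] (Fin d → ℂ)) := by
        ext w
        rfl
      rw [this, LinearMap.det_smul, hz, inv_mul_cancel₀ hdetE]
  choose U hUint hUdet using hU
  -- scalars relating the intertwiners
  have hmulU : ∀ g h : G, ∃ z : ℂ, z ^ (Module.finrank ℂ (Fin d → ℂ)) = 1 ∧
      ∀ w, U g (U h w) = z • U (g * h) w := by
    intro g h
    let T : Module.End ℂ (Fin d → ℂ) := ((U h).trans (U g)).trans (U (g * h)).symm
    have hT : ∀ n, T * σ n = σ n * T := by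
      intro n
      refine LinearMap.ext fun w => ?_
      show (U (g * h)).symm (U g (U h (σ n w))) = σ n ((U (g * h)).symm (U g (U h w)))
      rw [hUint, hUint, LinearEquiv.symm_apply_eq, hUint, LinearEquiv.apply_symm_apply]
      congr 2
      exact Subtype.ext (by simp [conjEquiv, mul_assoc])
    obtain ⟨z, hz⟩ := exists_smul_id_of_commute σ T hT
    have hz' : ∀ w, U g (U h w) = z • U (g * h) w := by
      intro w
      have h1 : (U (g * h)).symm (U g (U h w)) = z • w := LinearMap.congr_fun hz w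
      rw [LinearEquiv.symm_apply_eq, map_smul] at h1
      exact h1
    refine ⟨z, ?_, hz'⟩
    have h2 : (U g : (Fin d → ℂ) →ₗ[ℂ] (Fin d → ℂ)) ∘ₗ (U h : (Fin d → ℂ) →ₗ[ℂ] (Fin d → ℂ))
        = z • (U (g * h) : (Fin d → ℂ) →ₗ[ℂ] (Fin d → ℂ)) := by
      exact LinearMap.ext hz'
    have h3 := congrArg LinearMap.det h2
    rw [LinearMap.det_comp, LinearMap.det_smul, hUdet, hUdet, hUdet, one_mul, mul_one] at h3
    exact h3.symm
  have hNU : ∀ n : N, ∃ z : ℂ, z ^ (Module.finrank ℂ (Fin d → ℂ) * Nat.card N) = 1 ∧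
      ∀ w, U (n : G) w = z • σ n w := by
    intro n
    let T : Module.End ℂ (Fin d → ℂ) := σ n⁻¹ * (U (n : G) : (Fin d → ℂ) →ₗ[ℂ] (Fin d → ℂ))
    have hT : ∀ k, T * σ k = σ k * T := by
      intro k
      refine LinearMap.ext fun w => ?_
      show σ n⁻¹ (U (n : G) (σ k w)) = σ k (σ n⁻¹ (U (n : G) w))
      rw [hUint, ← Module.End.mul_apply, ← map_mul, ← Module.End.mul_apply, ← map_mul]
      congr 2
      exact Subtype.ext (by simp [conjEquiv, mul_assoc])
    obtain ⟨z, hz⟩ := exists_smul_id_of_commute σ T hT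
    have hz' : ∀ w, U (n : G) w = z • σ n w := by
      intro w
      have h1 : σ n⁻¹ (U (n : G) w) = z • w := LinearMap.congr_fun hz w
      have h2 := congrArg (σ n) h1
      rw [← Module.End.mul_apply, ← map_mul, mul_inv_cancel, map_one, Module.End.one_apply,
        map_smul] at h2
      exact h2
    refine ⟨z, ?_, hz'⟩
    have h2 : (U (n : G) : (Fin d → ℂ) →ₗ[ℂ] (Fin d → ℂ)) = z • σ n := by
      exact LinearMap.ext hz'
    have h3 := congrArg LinearMap.det h2
    rw [LinearMap.det_smul, hUdet] at h3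
    have h4 : LinearMap.det (σ n) ^ Nat.card N = 1 := by
      rw [← map_pow, ← map_pow, pow_card_eq_one', map_one, map_one]
    rw [pow_mul]
    calc (z ^ Module.finrank ℂ (Fin d → ℂ)) ^ Nat.card N
        = (z ^ Module.finrank ℂ (Fin d → ℂ) * LinearMap.det (σ n)) ^ Nat.card N := by
          rw [mul_pow, h4, mul_one]
      _ = 1 := by rw [← h3, one_pow]
  -- the space of intertwiners
  let ρN : Representation ℂ N (Fin c → ℂ) := ρ.comp N.subtype
  have hMrank : Module.finrank ℂ (IntertwiningMap σ ρN) = e := by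
    have h := classInner_char_eq_finrank σ ρN
    rw [hσ, show ρN.character = (fun n : N => (χ : G → ℂ) n) from by rw [← hρ]; rfl, he] at h
    exact_mod_cast h.symm
  haveI : FiniteDimensional ℂ (IntertwiningMap σ ρN) :=
    Module.finite_of_finrank_pos (hMrank ▸ Nat.pos_of_ne_zero he0)
  haveI : Nontrivial (IntertwiningMap σ ρN) :=
    Module.nontrivial_of_finrank_pos (R := ℂ) (hMrank ▸ Nat.pos_of_ne_zero he0)
  have hswap : ∀ (g : G) (n : N) (v : Fin c → ℂ),
      ρ g (ρ (n : G) v) = ρ ((conjEquiv N g n : N) : G) (ρ g v) := by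
    intro g n v
    rw [← Module.End.mul_apply, ← map_mul, ← Module.End.mul_apply, ← map_mul]
    congr 2
    simp [conjEquiv, mul_assoc]
  have hPmem : ∀ (g : G) (f : IntertwiningMap σ ρN) (n : N),
      (ρ g ∘ₗ f.toLinearMap ∘ₗ ((U g).symm : (Fin d → ℂ) →ₗ[ℂ] (Fin d → ℂ))) ∘ₗ σ n
        = ρN n ∘ₗ (ρ g ∘ₗ f.toLinearMap ∘ₗ ((U g).symm : (Fin d → ℂ) →ₗ[ℂ] (Fin d → ℂ))) := by
    intro g f n
    refine LinearMap.ext fun w => ?_
    obtain ⟨k, rfl⟩ := (conjEquiv N g).surjective n
    show ρ g (f.toLinearMap ((U g).symm (σ (conjEquiv N g k) w)))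
      = ρ ((conjEquiv N g k : N) : G) (ρ g (f.toLinearMap ((U g).symm w)))
    rw [← hswap]
    congr 1
    have h1 : (U g).symm (σ (conjEquiv N g k) w) = σ k ((U g).symm w) := by
      rw [LinearEquiv.symm_apply_eq, hUint, LinearEquiv.apply_symm_apply]
    rw [h1]
    exact IntertwiningMap.isIntertwining _ _ f k _
  let P : G → Module.End ℂ (IntertwiningMap σ ρN) := fun g =>
    { toFun := fun f => ⟨_, hPmem g f⟩
      map_add' := fun f f' => IntertwiningMap.ext (LinearMap.ext fun w => by simp)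
      map_smul' := fun z f => IntertwiningMap.ext (LinearMap.ext fun w => by simp) }
  have hPapply : ∀ (g : G) (f : IntertwiningMap σ ρN) (w : Fin d → ℂ),
      (P g f).toLinearMap w = ρ g (f.toLinearMap ((U g).symm w)) := fun g f w => rfl
  have hPmul : ∀ g h : G, ∃ z : ℂ, z ^ (Module.finrank ℂ (Fin d → ℂ)) = 1 ∧
      P g * P h = z • P (g * h) := by
    intro g h
    obtain ⟨z, hz1, hz⟩ := hmulU g h
    have hz0 : z ≠ 0 := by
      intro h0
      rw [h0, zero_pow hd0.ne'] at hz1
      exact zero_ne_one hz1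
    refine ⟨z⁻¹, by rw [inv_pow, hz1, inv_one], ?_⟩
    refine LinearMap.ext fun f => IntertwiningMap.ext (LinearMap.ext fun w => ?_)
    show ρ g (ρ h (f.toLinearMap ((U h).symm ((U g).symm w))))
      = z⁻¹ • ρ (g * h) (f.toLinearMap ((U (g * h)).symm w))
    have h1 : (U h).symm ((U g).symm w) = z⁻¹ • (U (g * h)).symm w := by
      rw [LinearEquiv.symm_apply_eq, LinearEquiv.symm_apply_eq, map_smul, map_smul, hz,
        smul_smul, inv_mul_cancel₀ hz0, one_smul, LinearEquiv.apply_symm_apply]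
    rw [h1, map_smul, map_smul, map_smul, map_mul]
    rfl
  have hPN : ∀ n : N, ∃ z : ℂ, z ^ (Module.finrank ℂ (Fin d → ℂ) * Nat.card N) = 1 ∧
      P (n : G) = z • 1 := by
    intro n
    obtain ⟨z, hz1, hz⟩ := hNU n
    have hm : Module.finrank ℂ (Fin d → ℂ) * Nat.card N ≠ 0 := mul_ne_zero hd0.ne' Nat.card_pos.ne'
    have hz0 : z ≠ 0 := by
      intro h0
      rw [h0, zero_pow hm] at hz1
      exact zero_ne_one hz1
    refine ⟨z⁻¹, by rw [inv_pow, hz1, inv_one], ?_⟩
    refine LinearMap.ext fun f => IntertwiningMap.ext (LinearMap.ext fun w => ?_)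
    show ρ (n : G) (f.toLinearMap ((U (n : G)).symm w)) = z⁻¹ • f.toLinearMap w
    have h1 : (U (n : G)).symm w = z⁻¹ • σ n⁻¹ w := by
      rw [LinearEquiv.symm_apply_eq, map_smul, hz, smul_smul, inv_mul_cancel₀ hz0, one_smul,
        ← Module.End.mul_apply, ← map_mul, mul_inv_cancel, map_one, Module.End.one_apply]
    have h2 : f.toLinearMap (σ n⁻¹ w) = ρ ((n⁻¹ : N) : G) (f.toLinearMap w) := IntertwiningMap.isIntertwining _ _ f n⁻¹ w
    rw [h1, map_smul, map_smul, h2, ← Module.End.mul_apply, ← map_mul]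
    simp
  -- the finite monoid
  set m := Module.finrank ℂ (Fin d → ℂ) * Nat.card N with hm
  have hm0 : 0 < m := Nat.mul_pos hd0 Nat.card_pos
  have hzd : ∀ z : ℂ, z ^ Module.finrank ℂ (Fin d → ℂ) = 1 → z ^ m = 1 := fun z h => by
    rw [hm, pow_mul, h, one_pow]
  have hP1 : ∃ z : ℂ, z ^ m = 1 ∧ P 1 = z • 1 := by simpa using hPN 1
  let Γ : Submonoid (Module.End ℂ (IntertwiningMap σ ρN)) :=
    { carrier := {A | ∃ (z : ℂ) (g : G), z ^ m = 1 ∧ A = z • P g}
      one_mem' := by
        obtain ⟨z, hz, h⟩ := hP1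
        have hz0 : z ≠ 0 := fun h0 => by rw [h0, zero_pow hm0.ne'] at hz; exact zero_ne_one hz
        exact ⟨z⁻¹, 1, by rw [inv_pow, hz, inv_one], by
          rw [h, smul_smul, inv_mul_cancel₀ hz0, one_smul]⟩
      mul_mem' := by
        rintro _ _ ⟨a, g, ha, rfl⟩ ⟨b, h, hb, rfl⟩
        obtain ⟨z, hz, hgh⟩ := hPmul g h
        exact ⟨a * b * z, g * h, by rw [mul_pow, mul_pow, ha, hb, hzd z hz, one_mul, one_mul],
          by rw [smul_mul_smul_comm, hgh, smul_smul]⟩ }
  have hΓfin : (Γ : Set (Module.End ℂ (IntertwiningMap σ ρN))).Finite := by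
    refine ((Polynomial.nthRootsFinset m (1 : ℂ)).finite_toSet.prod
      (Set.finite_univ (α := G))).image (fun x => x.1 • P x.2) |>.subset ?_
    rintro A ⟨z, g, hz, rfl⟩
    exact ⟨(z, g), ⟨(Polynomial.mem_nthRootsFinset hm0 1).2 hz, trivial⟩, rfl⟩
  have hPΓ : ∀ g : G, P g ∈ Γ := fun g => ⟨1, g, one_pow m, (one_smul ℂ _).symm⟩
  -- inverses
  have hQ : ∀ g : G, ∃ Q ∈ Γ, P g * Q = 1 ∧ Q * P g = 1 := by
    intro g
    obtain ⟨z, hz, h1⟩ := hP1
    obtain ⟨a, ha, h2⟩ := hPmul g g⁻¹
    rw [mul_inv_cancel, h1, smul_smul] at h2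
    have haz : (a * z) ^ m = 1 := by rw [mul_pow, hzd a ha, hz, one_mul]
    have haz0 : a * z ≠ 0 := fun h0 => by rw [h0, zero_pow hm0.ne'] at haz; exact zero_ne_one haz
    refine ⟨(a * z)⁻¹ • P g⁻¹, ⟨_, _, by rw [inv_pow, haz, inv_one], rfl⟩, ?_⟩
    have h3 : P g * ((a * z)⁻¹ • P g⁻¹) = 1 := by
      rw [mul_smul_comm, h2, smul_smul, inv_mul_cancel₀ haz0, one_smul]
    exact ⟨h3, mul_eq_one_comm.1 h3⟩
  choose Q hQΓ hPQ hQP using hQ
  -- irreducibility
  have hb : ∀ X : Module.End ℂ (IntertwiningMap σ ρN), (∀ g, X * P g = P g * X) →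
      ∃ z : ℂ, X = z • 1 := by
    intro X hX
    let b := Module.finBasisOfFinrankEq ℂ (IntertwiningMap σ ρN) hMrank
    let Φ : (Fin e → (Fin d → ℂ)) →ₗ[ℂ] (Fin c → ℂ) :=
      ∑ i, (b i).toLinearMap ∘ₗ LinearMap.proj i
    have hΦf : ∀ (f : IntertwiningMap σ ρN) (w : Fin d → ℂ),
        f.toLinearMap w = Φ (fun i => b.repr f i • w) := by
      intro f w
      simp only [Φ, LinearMap.sum_apply, LinearMap.comp_apply, LinearMap.proj_apply, map_smul]
      conv_lhs => rw [← b.sum_repr f]
      rw [IntertwiningMap.toLinearMap_sum, LinearMap.sum_apply]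
      rfl
    let R : Subrepresentation ρ := ⟨LinearMap.range Φ, by
      rintro g _ ⟨x, rfl⟩
      simp only [Φ, LinearMap.sum_apply, LinearMap.comp_apply, LinearMap.proj_apply, map_sum]
      refine Submodule.sum_mem _ fun i _ => ?_
      have : ρ g ((b i).toLinearMap (x i)) = (P g (b i)).toLinearMap (U g (x i)) := by
        rw [hPapply, LinearEquiv.symm_apply_apply]
      rw [this, hΦf]
      exact LinearMap.mem_range_self Φ _⟩
    have hRtop : LinearMap.range Φ = ⊤ := by
      rcases hρirr.eq_bot_or_eq_top R with h | h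
      · exfalso
        have h' : LinearMap.range Φ = ⊥ := congrArg Subrepresentation.toSubmodule h
        have hb0 : b ⟨0, Nat.pos_of_ne_zero he0⟩ ≠ 0 := b.ne_zero _
        refine hb0 (IntertwiningMap.ext (LinearMap.ext fun w => ?_))
        rw [hΦf]
        exact (Submodule.mem_bot ℂ).1 (h' ▸ LinearMap.mem_range_self Φ _)
      · exact congrArg Subrepresentation.toSubmodule h
    have hcd : Module.finrank ℂ (Fin e → (Fin d → ℂ)) = Module.finrank ℂ (Fin c → ℂ) := by
      have h1 : (c : ℂ) = e * d := by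
        rw [← hρ, ← hσ, Representation.char_one, Representation.char_one] at hdeg
        simpa using hdeg
      rw [Module.finrank_pi_fintype]
      simp
      exact_mod_cast h1.symm
    have hinj : Function.Injective Φ :=
      (LinearMap.injective_iff_surjective_of_finrank_eq_finrank hcd).2 (LinearMap.range_eq_top.1 hRtop)
    let E := LinearEquiv.ofBijective Φ ⟨hinj, LinearMap.range_eq_top.1 hRtop⟩
    let X' : Module.End ℂ (Fin c → ℂ) :=
      (∑ i, (X (b i)).toLinearMap ∘ₗ LinearMap.proj i) ∘ₗ (E.symm : (Fin c → ℂ) →ₗ[ℂ] _)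
    have hX' : ∀ (f : IntertwiningMap σ ρN) (w : Fin d → ℂ),
        X' (f.toLinearMap w) = (X f).toLinearMap w := by
      intro f w
      show (∑ i, (X (b i)).toLinearMap ∘ₗ LinearMap.proj i) (E.symm (f.toLinearMap w)) = _
      rw [show E.symm (f.toLinearMap w) = fun i => b.repr f i • w from
        E.symm_apply_eq.2 (hΦf f w)]
      simp only [LinearMap.sum_apply, LinearMap.comp_apply, LinearMap.proj_apply, map_smul]
      conv_rhs => rw [← b.sum_repr f]
      rw [map_sum, IntertwiningMap.toLinearMap_sum, LinearMap.sum_apply]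
      refine Finset.sum_congr rfl fun i _ => ?_
      rw [map_smul]
      rfl
    have hcomm : ∀ g, X' * ρ g = ρ g * X' := by
      intro g
      refine LinearMap.ext fun v => ?_
      obtain ⟨x, rfl⟩ := LinearMap.range_eq_top.1 hRtop v
      simp only [Φ, LinearMap.sum_apply, LinearMap.comp_apply, LinearMap.proj_apply,
        Module.End.mul_apply, map_sum]
      refine Finset.sum_congr rfl fun i _ => ?_
      have h1 : ρ g ((b i).toLinearMap (x i)) = (P g (b i)).toLinearMap (U g (x i)) := by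
        rw [hPapply, LinearEquiv.symm_apply_apply]
      rw [h1, hX', hX', show X (P g (b i)) = P g (X (b i)) from LinearMap.congr_fun (hX g) (b i),
        hPapply, LinearEquiv.symm_apply_apply]
    obtain ⟨z, hz⟩ := exists_smul_id_of_commute ρ X' hcomm
    refine ⟨z, LinearMap.ext fun f => IntertwiningMap.ext (LinearMap.ext fun w => ?_)⟩
    rw [← hX', hz]
    rfl
  -- averaging
  set M := IntertwiningMap σ ρN
  have hQinv : ∀ (g g' : G) (a : ℂ), P g' = a • P g → a • Q g' = Q g := by
    intro g g' a h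
    calc a • Q g' = Q g * P g * (a • Q g') := by rw [hQP, one_mul]
      _ = Q g * ((a • P g) * Q g') := by rw [mul_assoc, mul_smul_comm, smul_mul_assoc]
      _ = Q g := by rw [← h, hPQ, mul_one]
  have havg : ∀ B : Module.End ℂ M,
      ∑ g : G, P g * B * Q g = ((Nat.card G : ℂ) * LinearMap.trace ℂ M B / (e : ℂ)) • 1 := by
    intro B
    obtain ⟨z, hz⟩ := hb (∑ g : G, P g * B * Q g) fun h => by
      have key : P h * (∑ g : G, P g * B * Q g) * Q h = ∑ g : G, P g * B * Q g := by
        rw [Finset.mul_sum, Finset.sum_mul]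
        refine Fintype.sum_equiv (Equiv.mulLeft h) _ _ fun g => ?_
        obtain ⟨a, ha, hhg⟩ := hPmul h g
        have ha0 : a ≠ 0 := fun h0 => by rw [h0, zero_pow hd0.ne'] at ha; exact zero_ne_one ha
        have hQQ : Q g * Q h = a⁻¹ • Q (h * g) := by
          calc Q g * Q h = Q (h * g) * P (h * g) * (Q g * Q h) := by rw [hQP, one_mul]
            _ = Q (h * g) * ((a⁻¹ • (P h * P g)) * (Q g * Q h)) := by
                rw [hhg, smul_smul, inv_mul_cancel₀ ha0, one_smul, mul_assoc]
            _ = Q (h * g) * (a⁻¹ • (P h * ((P g * Q g) * Q h))) := by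
                simp only [smul_mul_assoc, mul_assoc]
            _ = _ := by rw [hPQ, one_mul, hPQ, mul_smul_comm, mul_one]
        show P h * (P g * B * Q g) * Q h = P (h * g) * B * Q (h * g)
        calc P h * (P g * B * Q g) * Q h = (P h * P g) * B * (Q g * Q h) := by simp only [mul_assoc]
          _ = _ := by
            rw [hhg, hQQ, smul_mul_assoc, smul_mul_assoc, mul_smul_comm, smul_smul,
              mul_inv_cancel₀ ha0, one_smul]
      calc (∑ g : G, P g * B * Q g) * P h = P h * (∑ g : G, P g * B * Q g) * Q h * P h := by rw [key]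
        _ = _ := by rw [mul_assoc, hQP, mul_one]
    rw [hz]
    congr 1
    have h1 := congrArg (LinearMap.trace ℂ M) hz
    rw [map_sum, map_smul, LinearMap.trace_one, hMrank, smul_eq_mul] at h1
    have h2 : ∀ g : G, LinearMap.trace ℂ M (P g * B * Q g) = LinearMap.trace ℂ M B := fun g => by
      rw [LinearMap.trace_mul_comm, ← mul_assoc, hQP, one_mul]
    rw [Finset.sum_congr rfl fun g _ => h2 g, Finset.sum_const, Finset.card_univ, nsmul_eq_mul,
      ← Nat.card_eq_fintype_card] at h1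
    rw [eq_div_iff (by exact_mod_cast he0)]
    exact h1.symm
  let b := Module.finBasisOfFinrankEq ℂ M hMrank
  have hsum : ∑ g : G, LinearMap.trace ℂ M (Q g) • P g = ((Nat.card G : ℂ) / (e : ℂ)) • 1 := by
    refine LinearMap.ext fun v => ?_
    have h1 : ∀ i, (∑ g : G, P g * (b.coord i).smulRight v * Q g) (b i)
        = ((Nat.card G : ℂ) * LinearMap.trace ℂ M ((b.coord i).smulRight v) / (e : ℂ)) • b i :=
      fun i => by rw [havg]; rfl
    have h2 := Finset.sum_congr (s₁ := (Finset.univ : Finset (Fin e))) rfl fun i _ => h1 i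
    have h3 : ∀ g : G, ∑ i, (P g * (b.coord i).smulRight v * Q g) (b i)
        = LinearMap.trace ℂ M (Q g) • P g v := by
      intro g
      rw [LinearMap.trace_eq_matrix_trace ℂ b, Matrix.trace, Finset.sum_smul]
      refine Finset.sum_congr rfl fun i _ => ?_
      simp [LinearMap.toMatrix_apply]
    simp only [LinearMap.sum_apply] at h2
    rw [Finset.sum_comm] at h2
    simp only [h3, LinearMap.trace_smulRight] at h2
    simp only [LinearMap.sum_apply, LinearMap.smul_apply]
    rw [h2, Module.End.one_apply]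
    conv_rhs => rw [← b.sum_repr v, Finset.smul_sum]
    refine Finset.sum_congr rfl fun i _ => ?_
    rw [smul_smul, Module.Basis.coord_apply]
    congr 1
    ring
  -- constant on cosets
  have hcos : ∀ (g : G) (n : N), LinearMap.trace ℂ M (Q (g * (n : G))) • P (g * (n : G))
      = LinearMap.trace ℂ M (Q g) • P g := by
    intro g n
    obtain ⟨a, ha, hgn⟩ := hPmul g n
    obtain ⟨z, hz, hn⟩ := hPN n
    rw [hn, mul_smul_comm, mul_one] at hgn
    have ha0 : a ≠ 0 := fun h0 => by rw [h0, zero_pow hd0.ne'] at ha; exact zero_ne_one ha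
    have hP : P (g * (n : G)) = (a⁻¹ * z) • P g := by
      rw [← smul_smul, hgn, smul_smul, inv_mul_cancel₀ ha0, one_smul]
    have hQ' := hQinv g (g * (n : G)) _ hP
    rw [← hQ', hP, map_smul, smul_smul, smul_eq_mul]
    congr 1
    ring
  haveI : Fintype (G ⧸ N) := Fintype.ofFinite _
  have hquot : ∑ q : G ⧸ N, LinearMap.trace ℂ M (Q q.out) • P q.out
      = ((N.index : ℂ) / (e : ℂ)) • (1 : Module.End ℂ M) := by
    have hfib : ∑ g : G, LinearMap.trace ℂ M (Q g) • P g
        = (Nat.card N : ℂ) • ∑ q : G ⧸ N, LinearMap.trace ℂ M (Q q.out) • P q.out := by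
      rw [Finset.smul_sum, ← Finset.sum_fiberwise Finset.univ (fun g : G => (g : G ⧸ N))]
      refine Finset.sum_congr rfl fun q _ => ?_
      have h1 : ∀ g ∈ Finset.univ.filter (fun g : G => (g : G ⧸ N) = q),
          LinearMap.trace ℂ M (Q g) • P g = LinearMap.trace ℂ M (Q q.out) • P q.out := by
        intro g hg
        have hg' : (g : G ⧸ N) = q := (Finset.mem_filter.1 hg).2
        have hmem : q.out⁻¹ * g ∈ N := QuotientGroup.eq.1 (by rw [QuotientGroup.out_eq', hg'])
        have := hcos q.out ⟨_, hmem⟩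
        simpa using this
      rw [Finset.sum_congr rfl h1, Finset.sum_const, Nat.cast_smul_eq_nsmul]
      congr 1
      rw [← Fintype.card_subtype, ← Nat.card_eq_fintype_card]
      rw [← Nat.card_congr (Equiv.subtypeEquivRight (fun g : G => show (g : G ⧸ N) ∈ ({q} : Set (G ⧸ N))
        ↔ (g : G ⧸ N) = q from Iff.rfl))]
      rw [show Nat.card {g : G // (g : G ⧸ N) ∈ ({q} : Set (G ⧸ N))} = Nat.card (N × ({q} : Set (G ⧸ N)))
        from Nat.card_congr (QuotientGroup.preimageMkEquivSubgroupProdSet N {q})]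
      simp
    rw [hsum] at hfib
    have hN0 : (Nat.card N : ℂ) ≠ 0 := by exact_mod_cast Nat.card_pos.ne'
    have h2 := congrArg (fun x => (Nat.card N : ℂ)⁻¹ • x) hfib
    simp only [smul_smul, inv_mul_cancel₀ hN0, one_smul] at h2
    rw [← h2, ← N.card_mul_index]
    congr 1
    push_cast
    field_simp
  refine nat_dvd_of_isIntegral he0 (isIntegral_scalar_of_combination Γ hΓfin Finset.univ _
    (fun q _ => ?_) _ (fun q _ => hPΓ q.out) hquot)
  haveI : Finite (Γ : Set (Module.End ℂ M)) := hΓfin.to_subtype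
  obtain ⟨i, j, hij, hpow⟩ : ∃ i j : ℕ, i < j ∧ Q q.out ^ i = Q q.out ^ j := by
    obtain ⟨i, j, hne, h⟩ := Finite.exists_ne_map_eq_of_infinite
      (fun k : ℕ => (⟨Q q.out ^ k, Γ.pow_mem (hQΓ q.out) k⟩ : (Γ : Set (Module.End ℂ M))))
    rcases lt_or_gt_of_ne hne with h1 | h1
    · exact ⟨i, j, h1, congrArg Subtype.val h⟩
    · exact ⟨j, i, h1, (congrArg Subtype.val h).symm⟩
  have hu : IsUnit (Q q.out) := ⟨⟨Q q.out, P q.out, hQP _, hPQ _⟩, rfl⟩
  refine Blocks.trace_isIntegral_of_pow_eq _ (n := j - i) (by omega) ((hu.pow i).mul_left_cancel ?_)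
  rw [← pow_add, show i + (j - i + 1) = j + 1 by omega, pow_succ, ← hpow]

/-- The degree ratio divides the index. -/
theorem degree_ratio [Fintype G] (N : Subgroup G) [N.Normal] [Fintype N]
    (χ : Cfsg.IrrCharacter G) (θ : Cfsg.IrrCharacter N)
    (hcon : Cfsg.classInner (fun n : N => (χ : G → ℂ) n) (θ : N → ℂ) ≠ 0) :
    ∃ k : ℕ, (χ : G → ℂ) 1 = k * (θ : N → ℂ) 1 ∧ k ∣ N.index := by
  classical
  let T : Subgroup G :=
    { carrier := {g | conjFn N (θ : N → ℂ) g = θ}
      one_mem' := conjFn_one N _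
      mul_mem' := fun {a b} (ha : _ = _) (hb : _ = _) => by
        show conjFn N _ (a * b) = _
        rw [conjFn_mul, ha, hb]
      inv_mem' := fun {a} (ha : _ = _) => by
        show conjFn N _ a⁻¹ = _
        conv_lhs => rw [← ha, ← conjFn_mul, mul_inv_cancel, conjFn_one] }
  have hNT : N ≤ T := fun c hc => funext fun n => by
    have := irr_isClassFunction θ n (⟨c, hc⟩ : N)
    exact (congrArg (θ : N → ℂ) (Subtype.ext rfl)).trans this
  haveI := Fintype.ofFinite T
  haveI := Fintype.ofFinite (N.subgroupOf T)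
  let e : N.subgroupOf T ≃* N := Subgroup.subgroupOfEquivOfLe hNT
  let θ' : Cfsg.IrrCharacter (N.subgroupOf T) :=
    ⟨fun x => (θ : N → ℂ) (e x), isIrrCharacter_comp_of_surjective θ.2 e.toMonoidHom e.surjective⟩
  have hresT := isCharacter_comp (isCharacter_of_isIrrCharacter χ.2) T.subtype
  have hexp := classFunction_expand (isClassFunction_of_isCharacter hresT)
  choose m hm using fun ψ : Cfsg.IrrCharacter T => exists_nat_classInner hresT ψ
  choose b hb using fun ψ : Cfsg.IrrCharacter T => exists_nat_classInner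
    (isCharacter_comp (isCharacter_of_isIrrCharacter ψ.2) (N.subgroupOf T).subtype) θ'
  have hb' : ∀ ψ : Cfsg.IrrCharacter T, Cfsg.classInner
      (fun x : N.subgroupOf T => (ψ : T → ℂ) (x : T)) (θ' : _ → ℂ) = b ψ := hb
  obtain ⟨a, ha⟩ := exists_nat_classInner
    (isCharacter_comp (isCharacter_of_isIrrCharacter χ.2) N.subtype) θ
  have ha' : Cfsg.classInner (fun c : N => (χ : G → ℂ) c) (θ : N → ℂ) = a := ha
  have hsum : a = ∑ ψ, m ψ * b ψ := by
    have h1 : (fun x : N.subgroupOf T => (χ : G → ℂ) ((x : T) : G)) =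
        ∑ ψ : Cfsg.IrrCharacter T, (m ψ : ℂ) • fun x : N.subgroupOf T => (ψ : T → ℂ) (x : T) := by
      funext x
      have := congrFun hexp (x : T)
      simp only [Subgroup.coe_subtype, Finset.sum_apply, Pi.smul_apply, smul_eq_mul] at this ⊢
      rw [this]
      exact Finset.sum_congr rfl fun ψ _ => by rw [← hm ψ]; rfl
    have h2 : Cfsg.classInner (fun x : N.subgroupOf T => (χ : G → ℂ) ((x : T) : G))
        (θ' : _ → ℂ) = a := by
      rw [← ha']
      unfold Cfsg.classInner
      rw [Nat.card_congr e.toEquiv]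
      congr 1
      exact Fintype.sum_equiv e.toEquiv _ _ fun _ => rfl
    rw [h1, classInner_sum_left] at h2
    simp only [classInner_smul_left, hb'] at h2
    exact_mod_cast h2.symm
  have ha0 : a ≠ 0 := fun h => hcon (by rw [ha', h]; simp)
  obtain ⟨ψ, -, hψ⟩ : ∃ ψ ∈ (Finset.univ : Finset (Cfsg.IrrCharacter T)), m ψ * b ψ ≠ 0 :=
    Finset.exists_ne_zero_of_sum_ne_zero (hsum ▸ ha0)
  have hm0 : 0 < m ψ := Nat.pos_of_ne_zero (left_ne_zero_of_mul hψ)
  have hle : b ψ ≤ a := le_trans (Nat.le_mul_of_pos_left _ hm0) (hsum ▸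
    Finset.single_le_sum (f := fun ψ => m ψ * b ψ) (fun _ _ => Nat.zero_le _) (Finset.mem_univ ψ))
  obtain ⟨hψ1, hdvd⟩ := dvd_index_of_invariant (N.subgroupOf T) ψ θ'
    (fun g => funext fun x => by
      have := congrFun (g.2 : conjFn N (θ : N → ℂ) (g : G) = θ) (e x)
      exact (congrArg (θ : N → ℂ) (Subtype.ext rfl)).trans this)
    (b ψ) (hb' ψ) (right_ne_zero_of_mul hψ)
  have hθ1 : (θ' : N.subgroupOf T → ℂ) 1 = (θ : N → ℂ) 1 := by
    show (θ : N → ℂ) (e 1) = _
    rw [map_one]
  rw [hθ1] at hψ1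
  obtain ⟨d, hd, hd1⟩ := irr_apply_one θ
  -- the orbit
  have hχ1 : (χ : G → ℂ) 1 = (a : ℂ) * T.index * (d : ℂ) := by
    have h := congrFun (res_eq_smul_sum_conj N χ θ hcon) 1
    simp only [Pi.smul_apply, smul_eq_mul, OneMemClass.coe_one] at h
    rw [h, ha', mul_assoc]
    congr 1
    set O := {f : N → ℂ | ∃ g : G, f = conjFn N (θ : N → ℂ) g} with hO
    have hfin : O.Finite := (Set.finite_range fun g : G => conjFn N (θ : N → ℂ) g).subset
      (by rintro f ⟨g, rfl⟩; exact ⟨g, rfl⟩)
    rw [finsum_mem_eq_finite_toFinset_sum _ hfin, Finset.sum_apply]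
    have hone : ∀ f ∈ hfin.toFinset, f 1 = (d : ℂ) := by
      intro f hf
      obtain ⟨g, rfl⟩ := (Set.Finite.mem_toFinset hfin).1 hf
      rw [← hd1]
      exact congrArg (θ : N → ℂ) (Subtype.ext (by simp))
    rw [Finset.sum_congr rfl hone, Finset.sum_const, nsmul_eq_mul, Subgroup.index_eq_card]
    congr 1
    norm_cast
    rw [← Set.ncard_eq_toFinset_card O hfin, ← Nat.card_coe_set_eq]
    symm
    let f : G ⧸ T → O := Quotient.lift (fun g => ⟨conjFn N (θ : N → ℂ) g⁻¹, g⁻¹, rfl⟩)
      (fun x y hxy => Subtype.ext (by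
        have hxy' : x⁻¹ * y ∈ T := QuotientGroup.leftRel_apply.1 hxy
        show conjFn N (θ : N → ℂ) x⁻¹ = conjFn N (θ : N → ℂ) y⁻¹
        calc conjFn N (θ : N → ℂ) x⁻¹ = conjFn N (θ : N → ℂ) (x⁻¹ * y * y⁻¹) := by
              rw [mul_inv_cancel_right]
          _ = conjFn N (conjFn N (θ : N → ℂ) (x⁻¹ * y)) y⁻¹ := conjFn_mul N _ _ _
          _ = conjFn N (θ : N → ℂ) y⁻¹ := by
              rw [show conjFn N (θ : N → ℂ) (x⁻¹ * y) = (θ : N → ℂ) from hxy']))
    refine Nat.card_congr (Equiv.ofBijective f ⟨?_, ?_⟩)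
    · intro q q'
      refine Quotient.inductionOn₂ q q' fun x y hxy => Quotient.sound ?_
      refine QuotientGroup.leftRel_apply.2 ?_
      have hxy' : conjFn N (θ : N → ℂ) x⁻¹ = conjFn N (θ : N → ℂ) y⁻¹ :=
        congrArg Subtype.val hxy
      show conjFn N _ (x⁻¹ * y) = _
      rw [conjFn_mul, hxy', ← conjFn_mul, inv_mul_cancel, conjFn_one]
    · rintro ⟨-, g, rfl⟩
      exact ⟨QuotientGroup.mk g⁻¹, Subtype.ext (by
        show conjFn N (θ : N → ℂ) g⁻¹⁻¹ = _
        rw [inv_inv])⟩
  -- the induced character contains `χ`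
  have hI := indFun_isCharacter T (isCharacter_of_isIrrCharacter ψ.2)
  have hinner : Cfsg.classInner (Cfsg.indFun T (ψ : T → ℂ)) (χ : G → ℂ) = m ψ := by
    rw [classInner_indFun T _ (irr_isClassFunction χ), ← classInner_conj_symm,
      show Cfsg.classInner (fun x : T => (χ : G → ℂ) x) (ψ : T → ℂ) = m ψ from hm ψ,
      Complex.conj_natCast]
  have hR : Cfsg.IsCharacter G (Cfsg.indFun T (ψ : T → ℂ) - (χ : G → ℂ)) := by
    refine isCharacter_of_inner_nat (fun g x => ?_) fun η => ?_
    · simp only [Pi.sub_apply]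
      rw [indFun_isClassFunction T _ g x, irr_isClassFunction χ g x]
    · rw [classInner_sub_left]
      by_cases hη : η = χ
      · subst hη
        rw [hinner, classInner_irr_self]
        exact ⟨m ψ - 1, by rw [Nat.cast_sub hm0]; simp⟩
      · obtain ⟨k, hk⟩ := exists_nat_classInner hI η
        exact ⟨k, by rw [hk, classInner_irr_of_ne (Ne.symm hη), sub_zero]⟩
  obtain ⟨r, hr⟩ := isCharacter_apply_one hR
  have hab : a = b ψ := by
    simp only [Pi.sub_apply, indFun_apply_one, hψ1, hχ1, hd1] at hr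
    have hr' : r + a * T.index * d = T.index * (b ψ * d) := by
      have : (r : ℂ) + (a : ℂ) * T.index * d = (T.index : ℂ) * ((b ψ : ℂ) * d) := by rw [← hr]; ring
      exact_mod_cast this
    have h2 : (T.index * d) * a ≤ (T.index * d) * b ψ := by linarith
    exact le_antisymm (Nat.le_of_mul_le_mul_left h2
      (Nat.mul_pos (Nat.pos_of_ne_zero T.index_ne_zero_of_finite) hd)) hle
  refine ⟨a * T.index, by rw [hχ1, hd1]; push_cast; ring, ?_⟩
  rw [← Subgroup.relIndex_mul_index hNT, hab]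
  exact mul_dvd_mul_right hdvd _

end Cfsg.Agent.Char
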